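import Cfsg.Agent.Lib.Helper29.FiE.Data

set_option autoImplicit false
set_option Elab.async false

namespace Cfsg.Agent.Lib.Helper29.FiE

open Cfsg.Agent.Lib.Helper29.TcTrace Cfsg.Agent.Lib.Helper29.TcCert Cfsg.Agent.Lib.Helper29.TcPerm

theorem lblk_0 : chkPBlk P 5 31 256 20 0 0x844209c223844708908088e0 = true := by decide +kernel
theorem lo_0_1 : ∀ b, 0 ≤ b → b < 1 → ∃ J, chkPBlk P 5 31 256 20 b J = true := fun b h1 h2 => by
  have hb : b = 0 := Nat.le_antisymm (Nat.le_of_lt_succ h2) h1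
  subst hb; exact ⟨_, lblk_0⟩

end Cfsg.Agent.Lib.Helper29.FiE
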